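import Cfsg.Agent.Lib.Dickson.Tri

/-! A second presentation of `A₅`, on two 3-cycles. -/

set_option autoImplicit false
set_option maxRecDepth 100000

namespace CfsgLib.Present

open Equiv

def R0A5u : RR 4 := [([0, 1], []), ([1, 0], []), ([2, 3], []), ([3, 2], []), ([0, 0], [1]), ([1, 1], [0]), ([2, 2], [3]), ([3, 3], [2]), ([0, 2, 0, 2, 0, 2, 0, 2, 0, 2], []), ([0, 3, 0, 3, 0, 3, 0, 3, 0, 3], []), ([0, 2, 0, 3, 0, 2, 0, 3], [])]

def csA5u : List (ℕ × ℕ × ℕ × Bool) := [(1, 8, 1, true), (1, 9, 1, true), (1, 10, 1, true), (8, 2, 1, false), (8, 10, 2, false), (9, 3, 1, false), (10, 3, 1, false), (10, 9, 2, true), (1, 14, 1, true), (1, 15, 1, true), (1, 16, 1, true), (1, 17, 1, true), (1, 18, 1, true), (2, 12, 1, true), (3, 11, 1, true), (8, 14, 2, true), (8, 15, 2, true), (8, 15, 4, false), (8, 17, 2, true), (9, 16, 2, true), (9, 18, 2, true), (9, 18, 4, false), (11, 11, 1, true), (11, 14, 2, true), (11,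 15, 2, false), (11, 17, 2, true), (12, 12, 1, true), (12, 16, 2, true), (12, 18, 2, false), (14, 11, 2, true), (14, 14, 3, false), (14, 17, 3, false), (16, 8, 1, true), (16, 12, 2, true), (16, 14, 1, true), (16, 15, 1, true), (16, 16, 3, false), (17, 14, 1, true), (17, 14, 3, true), (0, 43, 1, true), (0, 45, 1, true), (0, 46, 1, true), (0, 49, 1, true), (1, 48, 1, true), (2, 33, 1, false), (2, 44, 1, false), (4, 27, 1, true), (4, 31, 1, true), (6, 47, 1, false), (8, 27, 4, false), (15, 47, 1, true), (16, 44, 4, false), (16, 48, 1, false), (17, 26, 3, false), (17, 27, 3, false), (18, 28, 1, false), (18, 41, 1, true), (19, 11, 2, true), (19, 30, 1, true), (21, 12, 2, true), (21, 44, 4, false), (22, 26, 3, false), (22, 27, 3, false), (24, 32, 1, false), (24, 47, 1, true), (26, 17, 3, true), (26, 24, 3, true), (26, 31, 1, true), (27, 6, 1, false), (27, 32, 1, false), (27, 47, 1, false), (28, 9, 2, false),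 (28, 16, 2, true), (28, 18, 2, true), (28, 25, 2, false), (29, 4, 1, false), (29, 24, 1, false), (30, 25, 3, true), (31, 7, 1, false), (31, 41, 1, true), (32, 14, 2, false), (36, 4, 1, true), (36, 24, 1, false), (40, 7, 1, false), (41, 49, 4, true), (44, 6, 1, false), (44, 26, 2, false), (46, 17, 2, true), (46, 24, 2, true), (46, 48, 2, true), (0, 94, 1, false), (0, 96, 1, false), (1, 95, 1, true), (4, 82, 1, true), (4, 86, 1, true)]

def TA5u : List (Word 4) := [[], [0], [1], [2], [3], [0, 2], [0, 3], [1, 2], [1, 3], [2, 0], [2, 1], [3, 0], [3, 1], [0, 2, 0], [0, 2, 1], [0, 3, 0], [0, 3, 1], [1, 2, 0], [1, 2, 1], [1, 3, 0], [1, 3, 1], [2, 0, 2], [2, 0, 3], [2, 1, 2], [2, 1, 3], [3, 0, 2], [3, 0, 3], [3, 1, 2], [3, 1, 3], [0, 2, 0, 2], [0, 2, 0, 3], [0, 2, 1, 2], [0, 2, 1, 3], [0, 3, 0, 2], [0, 3, 0, 3], [0, 3, 1, 2], [0, 3, 1, 3], [1, 2, 0, 2], [1, 2, 0, 3], [1, 2, 1, 2], [1, 2, 1, 3], [1, 3, 0, 2], [1,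 3, 0, 3], [1, 3, 1, 2], [1, 3, 1, 3], [2, 0, 2, 0], [2, 0, 3, 1], [2, 1, 2, 1], [2, 1, 3, 0], [3, 0, 2, 1], [3, 0, 3, 0], [3, 1, 2, 0], [3, 1, 3, 1], [0, 2, 0, 2, 0], [0, 2, 1, 3, 0], [0, 3, 0, 3, 0], [0, 3, 1, 2, 0], [2, 0, 3, 1, 2], [2, 1, 3, 0, 2], [0, 2, 1, 3, 0, 2]]

theorem chkA5u : closedT (runKB R0A5u csA5u) TA5u = true := by decide +kernel

theorem lenA5u : TA5u.length = 60 := by decide +kernel

def aA5 : alternatingGroup (Fin 5) := ⟨swap 0 1 * swap 1 2, by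
  rw [Equiv.Perm.mem_alternatingGroup, map_mul, Equiv.Perm.sign_swap (by decide), Equiv.Perm.sign_swap (by decide)]; rfl⟩
def bA5 : alternatingGroup (Fin 5) := ⟨swap 2 3 * swap 3 4, by
  rw [Equiv.Perm.mem_alternatingGroup, map_mul, Equiv.Perm.sign_swap (by decide), Equiv.Perm.sign_swap (by decide)]; rfl⟩

def invL4 : Fin 4 → Fin 4 := ![1, 0, 3, 2]

section

variable {G : Type*} [Group G] (x y : G)

theorem hinv_gen4 (i : Fin 4) : ((![x, x⁻¹, y, y⁻¹] : Fin 4 → G) i)⁻¹ = (![x, x⁻¹, y, y⁻¹] : Fin 4 → G) (invL4 i) := by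
  fin_cases i <;> simp [invL4]

theorem valid_A5u (hx : x ^ 3 = 1) (hy : y ^ 3 = 1) (h1 : (x * y) ^ 5 = 1) (h2 : (x * y⁻¹) ^ 5 = 1) (h3 : (x * y * x * y⁻¹) ^ 2 = 1) :
    Valid (![x, x⁻¹, y, y⁻¹] : Fin 4 → G) R0A5u := by
  have e1 : x * x = x⁻¹ := by
    apply eq_inv_of_mul_eq_one_left
    rw [← hx]; simp [pow_succ]
  have e2 : x⁻¹ * x⁻¹ = x := by
    rw [← mul_inv_rev, e1, inv_inv]
  have e3 : y * y = y⁻¹ := by
    apply eq_inv_of_mul_eq_one_left
    rw [← hy]; simp [pow_succ]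
  have e4 : y⁻¹ * y⁻¹ = y := by
    rw [← mul_inv_rev, e3, inv_inv]
  intro r hr
  simp only [R0A5u, List.mem_cons, List.not_mem_nil, or_false] at hr
  rcases hr with rfl | rfl | rfl | rfl | rfl | rfl | rfl | rfl | rfl | rfl | rfl <;> simp [ev, e1, e2, e3, e4]
  · have := h1
    simp only [pow_succ, pow_zero, one_mul, mul_assoc] at this
    exact this
  · have := h2
    simp only [pow_succ, pow_zero, one_mul, mul_assoc] at this
    exact this
  · have := h3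
    simp only [pow_succ, pow_zero, one_mul, mul_assoc] at this
    exact this

end

theorem surjA5u : ∀ γ : alternatingGroup (Fin 5), ∃ w ∈ TA5u, ev (![aA5, aA5⁻¹, bA5, bA5⁻¹] : Fin 4 → alternatingGroup (Fin 5)) w = γ := by
  decide +kernel

theorem relA5u : aA5 ^ 3 = 1 ∧ bA5 ^ 3 = 1 ∧ (aA5 * bA5) ^ 5 = 1 ∧ (aA5 * bA5⁻¹) ^ 5 = 1 ∧ (aA5 * bA5 * aA5 * bA5⁻¹) ^ 2 = 1 := by
  decide +kernel

/-- `A₅` maps to any group with these relations. -/
theorem hom_A5u {G : Type*} [Group G] (x y : G) (hx : x ^ 3 = 1) (hy : y ^ 3 = 1) (h1 : (x * y) ^ 5 = 1) (h2 : (x * y⁻¹) ^ 5 = 1)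
    (h3 : (x * y * x * y⁻¹) ^ 2 = 1) :
    ∃ φ : alternatingGroup (Fin 5) →* G, φ aA5 = x ∧ φ bA5 = y := by
  obtain ⟨φ, hφ⟩ := exists_hom_of_cert (![x, x⁻¹, y, y⁻¹] : Fin 4 → G) (![aA5, aA5⁻¹, bA5, bA5⁻¹] : Fin 4 → alternatingGroup (Fin 5))
    chkA5u (by rw [lenA5u, Nat.card_eq_fintype_card]; decide +kernel) surjA5u invL4 (hinv_gen4 _ _) (hinv_gen4 _ _)
    (valid_A5u _ _ relA5u.1 relA5u.2.1 relA5u.2.2.1 relA5u.2.2.2.1 relA5u.2.2.2.2) (valid_A5u x y hx hy h1 h2 h3)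
  exact ⟨φ, hφ 0, hφ 2⟩

/-- The two 3-cycles generate. -/
theorem closure_ab : Subgroup.closure {aA5, bA5} = ⊤ := by
  rw [eq_top_iff]
  intro γ _
  obtain ⟨w, -, rfl⟩ := surjA5u γ
  have key : ∀ w : Word 4, ev (![aA5, aA5⁻¹, bA5, bA5⁻¹] : Fin 4 → alternatingGroup (Fin 5)) w ∈ Subgroup.closure {aA5, bA5} := by
    intro w
    induction w with
    | nil => exact Subgroup.one_mem _
    | cons c w ih =>
      refine Subgroup.mul_mem _ ?_ ih
      have ha : aA5 ∈ Subgroup.closure ({aA5, bA5} : Set (alternatingGroup (Fin 5))) := Subgroup.subset_closure (by simp)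
      have hb : bA5 ∈ Subgroup.closure ({aA5, bA5} : Set (alternatingGroup (Fin 5))) := Subgroup.subset_closure (by simp)
      fin_cases c
      · exact ha
      · exact Subgroup.inv_mem _ ha
      · exact hb
      · exact Subgroup.inv_mem _ hb
  exact key w

end CfsgLib.Present
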