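import Cfsg.Agent.Lib.Dickson.MinSimple
import Cfsg.Agent.Lib.Dickson.Tri2

/-! Generation of `SL₂` by two unipotent elements. -/

set_option autoImplicit false
set_option linter.unusedSimpArgs false
set_option linter.unusedVariables false
set_option linter.unusedSectionVars false
set_option linter.style.haveILetI false

namespace CfsgLib.Dickson

open Matrix CfsgLib.H9.SL2Cl MulAction
open CfsgLib.H9.PSL2 (pr pr_surj pr_eq_iff pr_eq_one_iff pr_zS pr_mul pr_pow pr_one)
open CfsgLib.H9.BorelChar (zS zS_00 zS_01 zS_10 zS_11 zS_central zS_sq)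

variable {F : Type*} [Field F] [Fintype F]
variable (p : ℕ) [Fact p.Prime] [CharP F p]

/-- The overgroups of two opposite root elements. -/
theorem over_UL (hp2 : p ≠ 2) (H : Subgroup (PSL2 F)) (lam : F) (hlam : lam ≠ 0)
    (hU : pr (U lam) ∈ H) (hL : pr (L (1 : F)) ∈ H) :
    (p = 3 ∧ Nonempty (H ≃* alternatingGroup (Fin 5))) ∨
      ∃ K : Subfield F, lam ∈ K ∧ (Nonempty (H ≃* PSL2 K) ∨ Nonempty (H ≃* Matrix.ProjGenLinGroup (Fin 2) K)) := by
  classical
  haveI : Finite (PSL2 F) := inferInstance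
  have hp : p.Prime := Fact.out
  have h10 : (1 : F) ≠ 0 := one_ne_zero
  set h := (isD_F (F := F) p).sub H with hh
  let u : H := ⟨pr (U lam), hU⟩
  let l : H := ⟨pr (L (1 : F)), hL⟩
  have hu1 : u ≠ 1 := fun e => pr_U_ne_one p hlam (congrArg Subtype.val e)
  have hl1 : l ≠ 1 := fun e => pr_L_ne_one 1 h10 (congrArg Subtype.val e)
  have hup : u ^ p = 1 := Subtype.ext (U_pow p lam)
  have hlp : l ^ p = 1 := Subtype.ext (pr_L_pow p 1)
  have huI : u • ptI (AC F) = ptI (AC F) := U_fix_inf lam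
  have hlO : l • pt0 F = pt0 F := pr_L_fix 1
  have hfixu : ∀ y : XF F, u • y = y → y = ptI (AC F) := by
    obtain ⟨x, hx⟩ := h.fix1 u hu1 hup
    intro y hy
    rw [(hx y).1 hy, ← (hx _).1 huI]
  have hfixl : ∀ y : XF F, l • y = y → y = pt0 F := by
    obtain ⟨x, hx⟩ := h.fix1 l hl1 hlp
    intro y hy
    rw [(hx y).1 hy, ← (hx _).1 hlO]
  have hne := pt0_ne (F := F)
  have hnofix : ∀ x : XF F, u • x = x → l • x = x → False := by
    intro x h1 h2
    exact hne ((hfixl x h2).symm.trans (hfixu x h1))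
  have hnocomm : u * l ≠ l * u := by
    intro e
    apply hnofix (ptI (AC F)) huI
    apply hfixu
    rw [← mul_smul, e, mul_smul, huI]
  have hnop : ¬ ∀ g : H, g ≠ 1 → g ^ p ≠ 1 := fun h0 => h0 u hu1 hup
  have hI : Qs h (ptI (AC F)) ≠ ⊥ := by
    intro e
    have : u ∈ Qs h (ptI (AC F)) := ⟨huI, hup⟩
    rw [e, Subgroup.mem_bot] at this
    exact hu1 this
  have hO : Qs h (pt0 F) ≠ ⊥ := by
    intro e
    have : l ∈ Qs h (pt0 F) := ⟨hlO, hlp⟩
    rw [e, Subgroup.mem_bot] at this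
    exact hl1 this
  rcases h.classify with ⟨ρ, -, h2⟩ | ⟨ρ, h1, h2, h3', h4, -⟩ | ⟨x, -, hx⟩ | ⟨h0, -⟩ | ⟨h0, -⟩ | ⟨h0, e⟩ | ⟨a, k, hTT⟩
  · exfalso
    apply hnocomm
    obtain ⟨i, hi⟩ := h2 u
    obtain ⟨j, hj⟩ := h2 l
    have hi' : ρ ^ i = u := hi
    have hj' : ρ ^ j = l := hj
    rw [← hi', ← hj']
    exact ((Commute.refl ρ).zpow_zpow i j).eq
  · exfalso
    have hnot : u ∉ Subgroup.zpowers ρ := by
      intro h6
      have h7 : orderOf u = p := orderOf_eq_prime hup hu1
      have h8 := orderOf_dvd_of_mem_zpowers h6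
      rw [h7] at h8
      exact h.not_dvd_order ρ h1 h2 h8
    have h5 := h4 u hnot
    have h7 : orderOf u = p := orderOf_eq_prime hup hu1
    have h8 := orderOf_dvd_of_pow_eq_one h5
    rw [h7] at h8
    exact hp2 ((Nat.prime_dvd_prime_iff_eq hp Nat.prime_two).1 h8)
  · exfalso
    exact hnofix x (hx u) (hx l)
  · exact absurd h0 hnop
  · exact absurd h0 hnop
  · left
    exact ⟨h0.resolve_left hnop, e⟩
  · right
    obtain ⟨K, τ, hτ, hc, -, hK, h5⟩ := E_main p H a k hTT hI hO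
    refine ⟨K, ?_, h5⟩
    obtain ⟨c, hc'⟩ := h.Qs_conj hI hO
    have hmem0 : pt0 F ∈ orbit H (ptI (AC F)) := ⟨c, hc'⟩
    have hcount : (orbit H (ptI (AC F))).ncard = Nat.card (Qs h (ptI (AC F))) + 1 := by
      rw [hTT.orb _ hI, hTT.cardQ _ hI]
    have hor := hat_or (p := p) hcount hmem0
    have h6 := hor (L (1 : F)) hL (by simp [L])
    have h7 : U (1 : F) ∈ hatH H := by
      simpa [L] using h6
    have hτK : τ ∈ K := by
      have h8 : τ⁻¹ ∈ K := by
        rw [hK, mul_inv_cancel₀ hτ]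
        exact h7
      have := K.inv_mem h8
      rwa [inv_inv] at this
    have h9 : lam / τ ∈ K := by
      rw [hK, mul_div_cancel₀ _ hτ, mem_hatH]
      exact hU
    have h10' := K.mul_mem hτK h9
    rwa [mul_div_cancel₀ _ hτ] at h10'

/-- Cases for the trace of an element of small order. -/
theorem trace_cases (M : SL2 F) (h01 : M.1 0 1 ≠ 0) (hn : pr M ^ 2 = 1 ∨ pr M ^ 3 = 1 ∨ pr M ^ 5 = 1) :
    trc M = 0 ∨ trc M ^ 2 = 1 ∨ trc M ^ 4 - 3 * trc M ^ 2 + 1 = 0 := by
  have key : ∀ (n : ℕ) (c d : F), LinPow M n c d → pr M ^ n = 1 → c = 0 := by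
    intro n c d hL h
    rw [← pr_pow, pr_eq_one_iff] at h
    have h2 : (M ^ n).1 0 1 = 0 := by
      rcases h with h | h
      · rw [h]
        simp
      · rw [h, zS_01]
    rw [hL.2.1] at h2
    exact (mul_eq_zero.1 h2).resolve_right h01
  rcases hn with hn | hn | hn
  · left
    have := key 2 _ _ (LinPow.first M).next hn
    simpa using this
  · right; left
    have := key 3 _ _ (LinPow.first M).next.next hn
    linear_combination this
  · right; right
    have := key 5 _ _ (LinPow.first M).next.next.next.next hn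
    linear_combination this

end CfsgLib.Dickson
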