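import Cfsg.Agent.Lib.Dickson.Gen2

/-! Generation of `SL₂` by `L 1` and `U lam`: the subgroup. -/

set_option autoImplicit false
set_option linter.unusedSimpArgs false
set_option linter.unusedVariables false
set_option linter.unusedSectionVars false
set_option linter.style.haveILetI false

namespace CfsgLib.Dickson

open Matrix CfsgLib.H9.SL2Cl MulAction
open CfsgLib.H9.PSL2 (pr pr_surj pr_eq_iff pr_eq_one_iff pr_zS pr_mul pr_pow pr_one)
open CfsgLib.H9.BorelChar (zS zS_00 zS_01 zS_10 zS_11 zS_central zS_sq)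

variable {F : Type*} [Field F]

theorem LinPow.eq_zS {A : SL2 F} {n : ℕ} (h : LinPow A n 0 (-1)) : A ^ n = zS F := by
  obtain ⟨h1, h2, h3, h4⟩ := h
  apply sl_ext
  · rw [h1]; simp [zS_00]
  · rw [h2]; simp [zS_01]
  · rw [h3]; simp [zS_10]
  · rw [h4]; simp [zS_11]

theorem pow_five_zS (A : SL2 F) (h : trc A ^ 2 = trc A + 1) : A ^ 5 = zS F := by
  have := (LinPow.first A).next.next.next.next
  have e1 : (1 * trc A + 0) * trc A + -1 = trc A := by linear_combination h
  have e2 : ((1 * trc A + 0) * trc A + -1) * trc A + -(1 * trc A + 0) = (1 : F) := by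
    rw [e1]; linear_combination h
  have e3 : (((1 * trc A + 0) * trc A + -1) * trc A + -(1 * trc A + 0)) * trc A + -((1 * trc A + 0) * trc A + -1) = (0 : F) := by
    rw [e2, e1]; ring
  rw [e3, e2] at this
  exact LinPow.eq_zS this

theorem W_sq : (W : SL2 F) ^ 2 = zS F := by
  rw [pow_two]
  apply sl_ext <;> simp [W, zS_00, zS_01, zS_10, zS_11, mul_00, mul_01, mul_10, mul_11]

/-- If a generator satisfies a Frobenius fixed point equation then all elements do. -/
theorem frob_of_gen (p : ℕ) [Fact p.Prime] [CharP F p] (lam : F) (hgen : Subfield.closure ({lam} : Set F) = ⊤) (k : ℕ)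
    (h : lam ^ (p ^ k) = lam) (x : F) : x ^ (p ^ k) = x := by
  have hle : Subfield.closure ({lam} : Set F) ≤ RingHom.eqLocusField (iterateFrobenius F p k) (RingHom.id F) := by
    rw [Subfield.closure_le]
    intro y hy
    have hy' : y = lam := hy
    rw [hy']
    show iterateFrobenius F p k lam = lam
    rw [iterateFrobenius_def, h]
  have hx : x ∈ RingHom.eqLocusField (iterateFrobenius F p k) (RingHom.id F) := hle (by rw [hgen]; trivial)
  have : iterateFrobenius F p k x = x := hx
  rwa [iterateFrobenius_def] at this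

theorem card_le_of_pow [Fintype F] (n : ℕ) (hn : 2 ≤ n) (h : ∀ x : F, x ^ n = x) : Fintype.card F ≤ n := by
  classical
  obtain ⟨g, hg⟩ := IsCyclic.exists_generator (α := Fˣ)
  have h1 : orderOf g = Fintype.card F - 1 := by
    rw [orderOf_eq_card_of_forall_mem_zpowers hg, Nat.card_eq_fintype_card, Fintype.card_units]
  have h2 : (g : F) ^ n = g := h _
  have h3 : g ^ (n - 1) = 1 := by
    apply Units.ext
    have h4 : (g : F) ^ (n - 1) * g = g := by
      rw [← pow_succ, show n - 1 + 1 = n by omega, h2]
    have h5 : (g : F) ≠ 0 := g.ne_zero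
    have h6 : (g : F) ^ (n - 1) = 1 := by
      field_simp at h4
      exact h4
    simpa using h6
  have h7 := orderOf_dvd_of_pow_eq_one h3
  rw [h1] at h7
  have h8 := Nat.le_of_dvd (by omega) h7
  omega

theorem trc_U_L (a c : F) : trc (U a * L c) = 2 + a * c := by
  simp only [trc, mul_00, mul_11, U, L, mk_00, mk_01, mk_10, mk_11]
  ring

theorem L_inv_eq (c : F) : (L c)⁻¹ = L (-c) := by
  apply inv_eq_of_mul_eq_one_right
  apply sl_ext <;> simp [L, mul_00, mul_01, mul_10, mul_11]

theorem pr_L_inv (c : F) : (pr (L c))⁻¹ = pr (L (-c)) := by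
  rw [← L_inv_eq]
  rfl

/-- The standard subgroup from the statement contains the two elements and is generated by them. -/
abbrev ulS (lam : F) : Subgroup (SL2 F) :=
  Subgroup.closure {g : Matrix.SpecialLinearGroup (Fin 2) F | (g : Matrix (Fin 2) (Fin 2) F) = !![1, 0; 1, 1] ∨ (g : Matrix (Fin 2) (Fin 2) F) = !![1, lam; 0, 1]}

theorem U_mem_ulS (lam : F) : U lam ∈ ulS lam := Subgroup.subset_closure (Or.inr rfl)

theorem L_mem_ulS (lam : F) : L (1 : F) ∈ ulS lam := Subgroup.subset_closure (Or.inl rfl)

/-- The projection as a homomorphism. -/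
abbrev prH (F : Type*) [Field F] : SL2 F →* PSL2 F := QuotientGroup.mk' _

theorem map_ulS_le (lam : F) (T : Subgroup (PSL2 F)) (hU : pr (U lam) ∈ T) (hL : pr (L (1 : F)) ∈ T) :
    (ulS lam).map (prH F) ≤ T := by
  rw [Subgroup.map_le_iff_le_comap, Subgroup.closure_le]
  rintro g (hg | hg)
  · have : g = L 1 := Subtype.ext hg
    rw [this]
    exact hL
  · have : g = U lam := Subtype.ext hg
    rw [this]
    exact hU

theorem ulS_eq_comap (lam : F) (hz : zS F ∈ ulS lam) : ((ulS lam).map (prH F)).comap (prH F) = ulS lam := by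
  rw [Subgroup.comap_map_eq, sup_eq_left, QuotientGroup.ker_mk']
  intro z hz2
  rcases (CfsgLib.H9.PSL2.mem_center_iff z).1 hz2 with rfl | rfl
  · exact Subgroup.one_mem _
  · exact hz

theorem ulS_top_of (lam : F) (hz : zS F ∈ ulS lam) (h : (ulS lam).map (prH F) = ⊤) : ulS lam = ⊤ := by
  rw [← ulS_eq_comap lam hz, h, Subgroup.comap_top]

/-- The generic case. -/
theorem ulS_generic [Fintype F] (h2 : (2 : F) ≠ 0) (lam : F) (hlam : lam ≠ 0) (hgen : Subfield.closure ({lam} : Set F) = ⊤)
    (hβ : ¬ (Fintype.card F = 9 ∧ lam ^ 2 = -1)) : ulS lam = ⊤ := by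
  classical
  obtain ⟨p, hpc⟩ := CharP.exists F
  haveI : CharP F p := hpc
  have hp : p.Prime := (CharP.char_is_prime_or_zero F p).resolve_right (fun e => by
    subst e
    haveI : CharZero F := CharP.charP_to_charZero F
    exact (not_finite F))
  haveI : Fact p.Prime := ⟨hp⟩
  have hp2 : p ≠ 2 := by
    rintro rfl
    exact h2 (by exact_mod_cast CharP.cast_eq_zero F 2)
  have hF : Fintype.card F = Fintype.card F := rfl
  set Hb := (ulS lam).map (prH F) with hHb
  have hU : pr (U lam) ∈ Hb := ⟨U lam, U_mem_ulS lam, rfl⟩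
  have hL : pr (L (1 : F)) ∈ Hb := ⟨L 1, L_mem_ulS lam, rfl⟩
  have htop : Hb = ⊤ := by
    rcases over_UL p hp2 Hb lam hlam hU hL with ⟨rfl, ⟨e⟩⟩ | ⟨K, hK, hKiso⟩
    · exfalso
      apply hβ
      -- the `A₅` case
      have h60 : Nat.card Hb = 60 := by rw [Nat.card_congr e.toEquiv]; exact card_A5'
      have hsmall : ∀ x : PSL2 F, x ∈ Hb → x ^ 2 = 1 ∨ x ^ 3 = 1 ∨ x ^ 5 = 1 := by
        intro x hx
        have hall : ∀ γ : alternatingGroup (Fin 5), γ ^ 2 = 1 ∨ γ ^ 3 = 1 ∨ γ ^ 5 = 1 := by decide +kernel
        have h1 := hall (e ⟨x, hx⟩)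
        rcases h1 with h1 | h1 | h1
        · left
          have h3 : e (⟨x, hx⟩ ^ 2) = e 1 := by rw [map_pow, h1, map_one]
          have h4 := e.injective h3
          exact congrArg Subtype.val h4
        · right; left
          have h3 : e (⟨x, hx⟩ ^ 3) = e 1 := by rw [map_pow, h1, map_one]
          have h4 := e.injective h3
          exact congrArg Subtype.val h4
        · right; right
          have h3 : e (⟨x, hx⟩ ^ 5) = e 1 := by rw [map_pow, h1, map_one]
          have h4 := e.injective h3
          exact congrArg Subtype.val h4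
      have h3eq : (3 : F) = 0 := by exact_mod_cast CharP.cast_eq_zero F 3
      have hM1 := trace_cases (U lam * L (1 : F)) (by simp [mul_01, U, L, hlam]) (hsmall _ (Hb.mul_mem hU hL))
      have hLinv : pr (L (-1 : F)) ∈ Hb := by
        rw [← pr_L_inv]
        exact Hb.inv_mem hL
      have hM2 := trace_cases (U lam * L (-1 : F)) (by simp [mul_01, U, L, hlam]) (hsmall _ (Hb.mul_mem hU hLinv))
      rw [trc_U_L] at hM1 hM2
      have hq3 : Fintype.card F ≠ 3 := by
        intro h6
        have h11 := card_PSL2 h6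
        have h12 : Nat.card Hb ∣ Nat.card (PSL2 F) := Subgroup.card_subgroup_dvd_card Hb
        rw [h60] at h12
        have h13 : Nat.card (PSL2 F) = 12 := by
          have h14 : Nat.gcd 2 (3 - 1) = 2 := by norm_num
          rw [h14] at h11
          omega
        omega
      have hnot3 : lam ^ 3 ≠ lam := by
        intro hlam3
        have h4 := frob_of_gen 3 lam hgen 1 (by simpa using hlam3)
        have h5 : Fintype.card F ≤ 3 := card_le_of_pow 3 (by norm_num) (by simpa using h4)
        obtain ⟨n, hn1, hn2⟩ := FiniteField.card F 3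
        apply hq3
        have h7 : 3 ^ (n : ℕ) ≤ 3 := by rw [← hn2]; exact h5
        have h8 : (n : ℕ) ≤ 1 := by
          by_contra h9
          have : 3 ^ 2 ≤ 3 ^ (n : ℕ) := Nat.pow_le_pow_right (by norm_num) (by omega)
          omega
        have h9 : 0 < (n : ℕ) := n.pos
        have h10 : (n : ℕ) = 1 := by omega
        rw [hn2, h10, pow_one]
      have hne1 : lam ≠ 1 := by
        rintro rfl
        exact hnot3 (by simp)
      have hne2 : lam ≠ -1 := by
        rintro rfl
        exact hnot3 (by ring)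
      have e1 : 2 + lam * 1 = lam - 1 := by linear_combination h3eq
      have e2 : 2 + lam * -1 = -(lam + 1) := by linear_combination h3eq
      rw [e1] at hM1
      rw [e2] at hM2
      have h4 : (lam - 1) ^ 4 = -1 := by
        rcases hM1 with h | h | h
        · exact absurd (by linear_combination h) hne1
        · exfalso
          have h5 : lam * (lam + 1) = 0 := by linear_combination h + lam * h3eq
          rcases mul_eq_zero.1 h5 with h6 | h6
          · exact hlam h6
          · exact hne2 (by linear_combination h6)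
        · linear_combination h + (lam - 1) ^ 2 * h3eq
      have h5 : (lam + 1) ^ 4 = -1 := by
        rcases hM2 with h | h | h
        · exact absurd (by linear_combination -h) hne2
        · exfalso
          have h5 : lam * (lam - 1) = 0 := by linear_combination h - lam * h3eq
          rcases mul_eq_zero.1 h5 with h6 | h6
          · exact hlam h6
          · exact hne1 (by linear_combination h6)
        · linear_combination h + (lam + 1) ^ 2 * h3eq
      have h6 : lam * (lam ^ 2 + 1) = 0 := by linear_combination (h4 - h5) + (3 * (lam ^ 3 + lam)) * h3eq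
      have h7 : lam ^ 2 = -1 := by
        have h8 := (mul_eq_zero.1 h6).resolve_left hlam
        linear_combination h8
      have h8 : lam ^ 9 = lam := by
        have : lam ^ 9 = lam * (lam ^ 2) ^ 4 := by ring
        rw [this, h7]
        ring
      have h9 := frob_of_gen 3 lam hgen 2 (by simpa using h8)
      have h10 : Fintype.card F ≤ 9 := card_le_of_pow 9 (by norm_num) (by simpa using h9)
      refine ⟨?_, h7⟩
      obtain ⟨n, hn1, hn2⟩ := FiniteField.card F 3
      have h11 : 3 ^ (n : ℕ) ≤ 9 := by rw [← hn2]; exact h10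
      have h12 : (n : ℕ) ≤ 2 := by
        by_contra h13
        have : 3 ^ 3 ≤ 3 ^ (n : ℕ) := Nat.pow_le_pow_right (by norm_num) (by omega)
        omega
      have h13 : 0 < (n : ℕ) := n.pos
      have h14 : (n : ℕ) ≠ 1 := by
        intro h15
        apply hq3
        rw [hn2, h15, pow_one]
      have h15 : (n : ℕ) = 2 := by omega
      rw [hn2, h15]
      norm_num
    · have hKtop : K = ⊤ := by
        rw [eq_top_iff, ← hgen, Subfield.closure_le]
        rintro _ rfl
        exact hK
      have hc : Nat.card K = Fintype.card F := by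
        rw [hKtop, Nat.card_congr Subfield.topEquiv.toEquiv, Nat.card_eq_fintype_card]
      exact subfield_full hF Hb K hKiso hc
  apply ulS_top_of lam _ htop
  have hW : pr (W : SL2 F) ∈ Hb := by rw [htop]; trivial
  obtain ⟨g, hg, hg2⟩ := hW
  have hg3 : pr g = pr W := hg2
  have hz := (ulS lam).pow_mem hg 2
  rcases (pr_eq_iff _ _).1 hg3 with rfl | rfl
  · rwa [W_sq] at hz
  · have h5 : (zS F * W) ^ 2 = zS F := by
      have hc : Commute (zS F) (W : SL2 F) := zS_central W
      rw [hc.mul_pow, pow_two (zS F), zS_sq, one_mul, W_sq]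
    rwa [h5] at hz

/-- The exceptional case. -/
theorem ulS_exc [Fintype F] (lam : F) (hlam : lam ≠ 0) (h9 : Fintype.card F = 9) (hl2 : lam ^ 2 = -1) :
    Nat.card (ulS lam) = 120 := by
  classical
  have h9' : (9 : F) = 0 := by
    have := Nat.cast_card_eq_zero F
    rwa [h9] at this
  have h3eq : (3 : F) = 0 := by
    have h2 : (3 : F) * 3 = 0 := by linear_combination h9'
    rcases mul_eq_zero.1 h2 with h | h <;> exact h
  haveI : Fact (Nat.Prime 3) := ⟨by norm_num⟩
  haveI hc3 : CharP F 3 := (CharP.charP_iff_prime_eq_zero (by norm_num)).2 (by exact_mod_cast h3eq)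
  have h1 : (pr (U lam)) ^ 3 = 1 := U_pow 3 lam
  have h2 : (pr (L (1 : F))) ^ 3 = 1 := pr_L_pow 3 1
  have hM1 : trc (U lam * L (1 : F)) ^ 2 = trc (U lam * L (1 : F)) + 1 := by
    rw [trc_U_L]
    linear_combination hl2 + lam * h3eq
  have hM2 : trc (U lam * L (-1 : F)) ^ 2 = trc (U lam * L (-1 : F)) + 1 := by
    rw [trc_U_L]
    linear_combination hl2 - lam * h3eq
  have h3 : (pr (U lam) * pr (L (1 : F))) ^ 5 = 1 := pow_five_of_golden _ hM1
  have h4 : (pr (U lam) * (pr (L (1 : F)))⁻¹) ^ 5 = 1 := by
    rw [pr_L_inv]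
    exact pow_five_of_golden _ hM2
  have h5 : (pr (U lam) * pr (L (1 : F)) * pr (U lam) * (pr (L (1 : F)))⁻¹) ^ 2 = 1 := by
    rw [pr_L_inv]
    apply pow_two_of_tr0 (U lam * L (1 : F) * U lam * L (-1 : F))
    simp only [trc, mul_00, mul_01, mul_10, mul_11, U, L, mk_00, mk_01, mk_10, mk_11]
    linear_combination -hl2 + h3eq
  obtain ⟨φ, hφ1, hφ2⟩ := CfsgLib.Present.hom_A5u _ _ h1 h2 h3 h4 h5
  haveI := alternatingGroup.isSimpleGroup_five
  have hinj : Function.Injective φ := by
    rw [injective_iff_map_eq_one]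
    intro a ha
    rcases (φ.normal_ker).eq_bot_or_eq_top with h | h
    · have h6 : a ∈ φ.ker := ha
      rw [h] at h6
      exact h6
    · exfalso
      have h6 : CfsgLib.Present.aA5 ∈ φ.ker := by rw [h]; trivial
      have h7 : φ CfsgLib.Present.aA5 = 1 := h6
      rw [hφ1] at h7
      exact pr_U_ne_one 3 hlam h7
  have hrange : (ulS lam).map (prH F) = φ.range := by
    apply le_antisymm
    · exact map_ulS_le lam φ.range ⟨_, hφ1⟩ ⟨_, hφ2⟩
    · rw [MonoidHom.range_eq_map, ← CfsgLib.Present.closure_ab, MonoidHom.map_closure, Subgroup.closure_le]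
      rintro _ ⟨x, hx, rfl⟩
      rcases hx with rfl | hx
      · rw [hφ1]
        exact ⟨_, U_mem_ulS lam, rfl⟩
      · have hx' : x = CfsgLib.Present.bA5 := hx
        rw [hx', hφ2]
        exact ⟨_, L_mem_ulS lam, rfl⟩
  have hcr : Nat.card φ.range = 60 := by
    rw [← Nat.card_congr (MonoidHom.ofInjective hinj).toEquiv]
    exact card_A5'
  have hz : zS F ∈ ulS lam := by
    rw [← pow_five_zS _ hM1]
    exact (ulS lam).pow_mem ((ulS lam).mul_mem (U_mem_ulS lam) (L_mem_ulS lam)) 5
  have hidx : (ulS lam).index = φ.range.index := by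
    conv_lhs => rw [← ulS_eq_comap lam hz, hrange]
    exact Subgroup.index_comap_of_surjective _ (QuotientGroup.mk'_surjective _)
  have hSL := card_SL2_field F 9 (by rw [Nat.card_eq_fintype_card, h9])
  have hPSL := card_PSL2 h9
  have h14 : Nat.gcd 2 (9 - 1) = 2 := by norm_num
  rw [h14] at hPSL
  have hA := Subgroup.card_mul_index (ulS lam)
  have hB := Subgroup.card_mul_index φ.range
  have hPSL' : Nat.card (PSL2 F) = 360 := by omega
  rw [hcr, hPSL'] at hB
  have h6 : φ.range.index = 6 := by omega
  rw [hidx, h6] at hA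
  omega

end CfsgLib.Dickson
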