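import Cfsg.Agent.Lib.Dickson.CoCases
import Cfsg.Agent.Lib.Char.Burnside
import Cfsg.Agent.Lib.Dickson.SubMax
import Cfsg.Agent.Lib.H9.PSLSimple

/-! Solvability of subgroups of `PSL₂`, towards the list of minimal simple groups. -/

set_option autoImplicit false
set_option linter.unusedSimpArgs false
set_option linter.unusedVariables false
set_option linter.unusedSectionVars false
set_option linter.style.haveILetI false

namespace CfsgLib.Dickson

open Matrix CfsgLib.H9.SL2Cl MulAction
open CfsgLib.H9.PSL2 (pr pr_surj pr_eq_iff pr_eq_one_iff pr_zS pr_mul pr_pow pr_one)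
open CfsgLib.H9.BorelChar (zS zS_00 zS_01 zS_10 zS_11 zS_central zS_sq)

/-- Metabelian groups are solvable. -/
theorem solvable_of_ker_comm {G A : Type*} [Group G] [CommGroup A] (f : G →* A)
    (h : ∀ a ∈ f.ker, ∀ b ∈ f.ker, a * b = b * a) : Group.IsSolvable G := by
  haveI : Group.IsSolvable f.ker := isSolvable_of_comm (fun a b => Subtype.ext (h a a.2 b b.2))
  exact solvable_of_ker_le_range f.ker.subtype f (by simp)

theorem not_comm_UL {F : Type*} [Field F] : pr (U (1 : F)) * pr (L (1 : F)) ≠ pr (L (1 : F)) * pr (U (1 : F)) := by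
  intro e
  rw [← pr_mul, ← pr_mul, pr_eq_iff] at e
  rcases e with e | e
  · have := congrArg (fun M : SL2 F => M.1 0 0) e
    simp [U, L, mul_00] at this
  · have h1 := congrArg (fun M : SL2 F => M.1 0 0) e
    have h2 := congrArg (fun M : SL2 F => M.1 0 1) e
    simp [U, L, mul_00, mul_01, zS] at h1 h2
    have h3 : (2 : F) = 0 := by linear_combination h2
    have : (1 : F) = 0 := by linear_combination h1 - h3
    exact one_ne_zero this

variable {F : Type*} [Field F] [Fintype F] {q : ℕ} (hF : Fintype.card F = q)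
variable (p : ℕ) [Fact p.Prime] [CharP F p]

theorem exists_nonsq (hq : 4 ≤ q) (hF : Fintype.card F = q) : ∃ x : F, x ≠ 0 ∧ x ^ 2 ≠ 1 := by
  classical
  by_contra hall
  push Not at hall
  have hsub : (Set.univ : Set F) ⊆ ({0, 1, -1} : Finset F) := by
    intro x _
    by_cases h0 : x = 0
    · simp [h0]
    · rcases CfsgLib.H9.PSL2.sq_one (hall x h0) with h | h <;> simp [h]
  have h1 := Set.ncard_le_ncard hsub (Finset.finite_toSet _)
  rw [Set.ncard_univ, Set.ncard_coe_finset, Nat.card_eq_fintype_card, hF] at h1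
  have h2 : ({0, 1, -1} : Finset F).card ≤ 3 := Finset.card_le_three
  omega

/-- Simplicity of `PSL₂`. -/
theorem psl_simple (hq : 4 ≤ q) (hF : Fintype.card F = q) : IsSimpleGroup (PSL2 F) :=
  CfsgLib.H9.PSLSimple.simple (Or.inr ⟨rfl, exists_nonsq hq hF⟩)

/-- `PSL₂` is not solvable, for `q ≥ 4`. -/
theorem psl_not_solvable (K : Type*) [Field K] [Fintype K] (hq : 4 ≤ Fintype.card K) : ¬ Group.IsSolvable (PSL2 K) := by
  intro h
  haveI := psl_simple hq rfl
  exact not_comm_UL (IsSimpleGroup.comm_iff_isSolvable.2 h _ _)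

theorem A5_not_solvable : ¬ Group.IsSolvable (alternatingGroup (Fin 5)) := by
  intro h
  haveI := alternatingGroup.isSimpleGroup_five
  have h1 := IsSimpleGroup.comm_iff_isSolvable.2 h CfsgLib.Present.xA5 CfsgLib.Present.yA5
  revert h1
  decide +kernel

/-- Groups of order 12 and 24 are solvable. -/
theorem solvable_12 {G : Type*} [Group G] [Finite G] (h : Nat.card G = 12) : Group.IsSolvable G :=
  CfsgLib.Char.solvable_of_card_eq Nat.prime_two Nat.prime_three _ G h ⟨2, 1, rfl⟩

theorem solvable_24 {G : Type*} [Group G] [Finite G] (h : Nat.card G = 24) : Group.IsSolvable G :=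
  CfsgLib.Char.solvable_of_card_eq Nat.prime_two Nat.prime_three _ G h ⟨3, 1, rfl⟩

include p in
/-- The criterion for being a minimal simple group. -/
theorem minimal_of (hF : Fintype.card F = q) (hq : 4 ≤ q) (hA5 : 5 ∣ q * (q ^ 2 - 1) → q = 4 ∨ q = 5)
    (hE : ∀ a m, 3 ≤ a → a ^ m = q → a = q ∨ a = 3) : Cfsg.IsMinimalSimple (PSL2 F) := by
  classical
  refine ⟨psl_simple hq hF, ?_, ?_⟩
  · intro hc
    exact not_comm_UL (hc.is_comm.comm _ _)
  · intro H hH
    have hG := card_PSL2 hF
    have hdvd := card_dvd_num hF H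
    have hq2 := two_le_q hF
    rcases dickson p H with ⟨ρ', h3, h4, h5⟩ | ⟨ρ', h3, h4, h5, h6, h8, hc, -⟩ | ⟨z, ⟨g, hg, hg1, hg2⟩, hfix⟩ | ⟨-, ⟨e⟩⟩ | ⟨-, ⟨e⟩⟩ | ⟨-, ⟨e⟩⟩ | ⟨K, τ, hτ, t, hK3, hmem, hK⟩
    · subst h5
      exact isSolvable_of_comm (fun a b => Subtype.ext (commute_of_zpowers a.2 b.2))
    · -- dihedral
      let ρ₁ : H := ⟨ρ', h3⟩
      have hord : orderOf ρ₁ = orderOf ρ' := Subgroup.orderOf_mk ρ' h3
      have hidx : (Subgroup.zpowers ρ₁).index = 2 := by
        have h7 := (Subgroup.zpowers ρ₁).card_mul_index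
        rw [Nat.card_zpowers, hord, hc] at h7
        have : orderOf ρ' * (Subgroup.zpowers ρ₁).index = orderOf ρ' * 2 := by
          rw [h7]
          ring
        exact Nat.eq_of_mul_eq_mul_left (orderOf_pos ρ') this
      haveI hn : (Subgroup.zpowers ρ₁).Normal := Subgroup.normal_of_index_eq_two hidx
      haveI : Group.IsSolvable (H ⧸ Subgroup.zpowers ρ₁) := by
        haveI : Fact (Nat.card (H ⧸ Subgroup.zpowers ρ₁)).Prime := ⟨by
          have : Nat.card (H ⧸ Subgroup.zpowers ρ₁) = 2 := hidx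
          rw [this]
          exact Nat.prime_two⟩
        haveI := isCyclic_of_prime_card (α := H ⧸ Subgroup.zpowers ρ₁) rfl
        exact isSolvable_of_comm (fun a b => (IsCyclic.commutative (α := H ⧸ Subgroup.zpowers ρ₁)).is_comm.comm a b)
      haveI : Group.IsSolvable (Subgroup.zpowers ρ₁) := isSolvable_of_comm (fun a b => Subtype.ext (commute_of_zpowers a.2 b.2))
      exact solvable_of_ker_le_range (Subgroup.zpowers ρ₁).subtype (QuotientGroup.mk' (Subgroup.zpowers ρ₁)) (by simp)
    · -- a fixed point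
      obtain ⟨φ, hφ⟩ := (isD_F (F := F) p).chi z
      let i : H →* stabilizer (PSL2 F) z :=
        { toFun := fun a => ⟨a.1, hfix a.1 a.2⟩
          map_one' := rfl
          map_mul' := fun _ _ => rfl }
      apply solvable_of_ker_comm (φ.comp i)
      intro a ha b hb
      have h1 := (hφ (i a)).1 ha
      have h2 := (hφ (i b)).1 hb
      exact Subtype.ext ((isD_F (F := F) p).comm z a.1 b.1 (hfix a.1 a.2) (hfix b.1 b.2) h1 h2)
    · exact solvable_12 (by rw [Nat.card_congr e.toEquiv]; exact card_A4')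
    · exact solvable_24 (by rw [Nat.card_congr e.toEquiv]; exact card_S4')
    · exfalso
      have hcH : Nat.card H = 60 := by rw [Nat.card_congr e.toEquiv]; exact card_A5'
      rw [hcH] at hdvd
      have h5 : 5 ∣ (q + 1) * (q * (q - 1)) := Dvd.dvd.trans (Dvd.dvd.trans (by norm_num) (Dvd.intro _ rfl)) hdvd
      have h6 : q * (q ^ 2 - 1) = (q + 1) * (q * (q - 1)) := by
        obtain ⟨r, rfl⟩ : ∃ r, q = r + 1 := ⟨q - 1, by omega⟩
        have : (r + 1) ^ 2 - 1 = r * (r + 2) := by
          have : (r + 1) ^ 2 = r * (r + 2) + 1 := by ring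
          omega
        simp only [Nat.add_sub_cancel, this]
        ring
      rw [← h6] at h5
      apply hH
      apply Subgroup.eq_top_of_le_card
      rw [hcH]
      rcases hA5 h5 with rfl | rfl
      · rw [gcd_two_of_even 4 (by norm_num) (by norm_num)] at hG
        omega
      · rw [gcd_two_of_odd 5 (by norm_num)] at hG
        omega
    · obtain ⟨m, hm⟩ := exists_degree K
      rw [hF] at hm
      rcases hE _ m hK3 hm with h | h
      · exact absurd (subfield_full hF H K hK h) hH
      · rcases card_subfield_cases H K hK with h7 | h7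
        · rw [h, gcd_two_of_odd 3 (by norm_num)] at h7
          exact solvable_12 (by omega)
        · rw [h] at h7
          exact solvable_24 h7

theorem same_gcd (a m q : ℕ) (ha : 1 ≤ a) (hm : m ≠ 0) (h : a ^ m = q) : Nat.gcd 2 (a - 1) = Nat.gcd 2 (q - 1) := by
  have hq1 : 1 ≤ q := by
    rw [← h]
    exact Nat.one_le_pow _ _ ha
  rcases Nat.mod_two_eq_zero_or_one a with h5 | h5
  · have h6 : q % 2 = 0 := by
      rw [← h, Nat.pow_mod, h5]
      simp [hm]
    rw [gcd_two_of_even a h5 ha, gcd_two_of_even q h6 hq1]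
  · have h6 : q % 2 = 1 := by
      rw [← h, Nat.pow_mod, h5]
      simp
    rw [gcd_two_of_odd a h5, gcd_two_of_odd q h6]

/-- A proper subfield gives a proper subgroup. -/
theorem subfield_range_ne_top (hF : Fintype.card F = q) (K₀ : Subfield F) (a m : ℕ) (hK₀ : Nat.card K₀ = a) (ha : 1 ≤ a)
    (ham : a ^ m = q) (hlt : a < q) : (thetaP K₀ 1 one_ne_zero).range ≠ ⊤ := by
  intro e
  have h1 : Nat.card (PSL2 K₀) = Nat.card (PSL2 F) := by
    rw [Nat.card_congr (MonoidHom.ofInjective (thetaP_inj K₀ 1 one_ne_zero)).toEquiv, e, Subgroup.card_top]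
  have hPK := card_PSL2_nat K₀
  have hG := card_PSL2 hF
  have hm0 : m ≠ 0 := by
    rintro rfl
    simp at ham
    omega
  rw [hK₀, h1, same_gcd a m q ha hm0 ham, hG] at hPK
  have := num_lt a q ha hlt
  omega

/-- Proper subfields of order at least four are an obstruction to having all proper subgroups solvable. -/
theorem subfield_obstruction (hF : Fintype.card F = q) (hsol : ∀ H : Subgroup (PSL2 F), H ≠ ⊤ → Group.IsSolvable H)
    (K₀ : Subfield F) (a m : ℕ) (hK₀ : Nat.card K₀ = a) (ha : 4 ≤ a) (ham : a ^ m = q) (hlt : a < q) : False := by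
  classical
  haveI : Fintype K₀ := Fintype.ofFinite K₀
  have hns := psl_not_solvable K₀ (by rw [← Nat.card_eq_fintype_card, hK₀]; exact ha)
  have hne := subfield_range_ne_top hF K₀ a m hK₀ (by omega) ham hlt
  have := hsol _ hne
  exact hns (solvable_of_solvable_injective (f := (MonoidHom.ofInjective (thetaP_inj K₀ 1 one_ne_zero)).toMonoidHom) (MonoidHom.ofInjective (thetaP_inj K₀ 1 one_ne_zero)).injective)

end CfsgLib.Dickson
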